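import Cfsg.Agent.R08.FrameA
import Cfsg.Agent.R08.ModLab
import Cfsg.Agent.R08.EvenOf
import Cfsg.Agent.R08.TwoSys
import Cfsg.Agent.R08.Geo5
import Cfsg.Prelude.Def_MonsterType

/-!
# Groups of large Fischer type: the labelling of `Q / ⟨z⟩` by `F4 ^ 6`

`exists_lab`: from `IsOfLargeFischerTypeAt z Q` to `Lab F4 (Q.map C.subtype) (M.map C.subtype) z` of
`Cfsg.Agent.R08.Iface`, with a fused conjugate of `z` and the perfectness hypothesis of `R08`.
-/

set_option autoImplicit false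

namespace Cfsg.Agent.H824.FiBase

open Cfsg Cfsg.Agent.SporRec.GF4 Cfsg.Agent.R08 Cfsg.Agent.R08.Iface

theorem exists_lab {G : Type*} [Group G] [Finite G] (z : G)
    (Q : Subgroup (Subgroup.centralizer ({z} : Set G))) [Q.Normal]
    (hF : Cfsg.IsOfLargeFischerTypeAt z Q) :
    ∃ (M : Subgroup (Subgroup.centralizer ({z} : Set G))) (_ : Lab F4
      (Q.map (Subgroup.centralizer ({z} : Set G)).subtype)
      (M.map (Subgroup.centralizer ({z} : Set G)).subtype) z),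
      M.Normal ∧ M.index = 2 ∧ Q ≤ M ∧
      (∃ g : G, g * z * g⁻¹ ∈ Q.map (Subgroup.centralizer ({z} : Set G)).subtype ∧
        g * z * g⁻¹ ≠ z) ∧
      (∀ f : M.map (Subgroup.centralizer ({z} : Set G)).subtype →* ℤˣ,
        (∀ m : M.map (Subgroup.centralizer ({z} : Set G)).subtype,
          (m : G) ∈ Q.map (Subgroup.centralizer ({z} : Set G)).subtype → f m = 1) →
        ∀ m, f m = 1) := by
  obtain ⟨⟨hz, hFit, hQ, hcard, hnwc⟩, N, M, hN, hM, hQN, hNM, hcN, ⟨K, hKf, hKt, hK, ⟨e⟩⟩, hMi⟩ := hF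
  have hcard' : Nat.card Q = 2 ^ 13 := hcard
  obtain ⟨h, ⟨fd⟩⟩ := FrameA.exists_frameData z hz Q N M hFit hQ hcard' hQN hNM hcN K hK e F4
    F4.card_F4
  obtain ⟨L⟩ := ModLab.exists_lab (by rw [Nat.card_eq_fintype_card, F4.card_F4]) fd
    inferInstance inferInstance hMi (fun c hc => hNM (hQN (by
      obtain ⟨x, hx, hxe⟩ := hc
      have h1 : x = c := Subtype.ext hxe
      rwa [← h1])))
  refine ⟨M, L, hM, hMi, hQN.trans hNM, ?_, ?_⟩
  · obtain ⟨g, ⟨hq, h1⟩, h2⟩ := hnwc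
    exact ⟨g, ⟨_, h1, rfl⟩, h2⟩
  · exact fun f hf m => EvenOf.even_map Q N M hQN hNM hcN K hK e f hf m

end Cfsg.Agent.H824.FiBase
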