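import Cfsg.Agent.H824.FiMono
import Cfsg.Agent.H824.ProdLem

/-!
# Groups of large Fischer type: the elementary abelian group `V = v⁻¹(F s)` of order 8 and its centraliser
-/

set_option autoImplicit false

namespace Cfsg.Agent.H824.FiV

open Cfsg.Agent.SporRec.GF4 Cfsg.Agent.R08 Cfsg.Agent.R08.Iface Cfsg.Agent.R08.TwoFin
open Cfsg.Agent.R08.TwoGrp Cfsg.Agent.R08.Iface.Lab Cfsg.Agent.H824.FiStab
open Subgroup

variable {G : Type*} [Group G] {Q M : Subgroup G} {z : G}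

/-- the preimage of `F s` -/
def VV (L : Lab F4 Q M z) (s : W) : Subgroup G where
  carrier := {x | x ∈ Q ∧ InF s (L.v x)}
  one_mem' := ⟨Q.one_mem, 0, by rw [L.v_one, zero_smul]⟩
  mul_mem' := by
    rintro x y ⟨hx, k, hk⟩ ⟨hy, l, hl⟩
    exact ⟨Q.mul_mem hx hy, k + l, by rw [L.v_mul x hx y hy, hk, hl, add_smul]⟩
  inv_mem' := by
    rintro x ⟨hx, k, hk⟩
    exact ⟨Q.inv_mem hx, k, by rw [L.v_inv hx, hk]⟩

theorem mem_VV {L : Lab F4 Q M z} {s : W} {x : G} : x ∈ VV L s ↔ x ∈ Q ∧ InF s (L.v x) := Iff.rfl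

section basic

variable (L : Lab F4 Q M z) {s : W}

theorem VV_le : VV L s ≤ Q := fun _ h => h.1

theorem z_mem_VV : z ∈ VV L s := ⟨L.large.z_mem, 0, by rw [L.v_z, zero_smul]⟩

theorem inF_smul {k : F4} (hk : k ≠ 0) {w : W} : InF (k • s) w ↔ InF s w := by
  constructor
  · rintro ⟨l, rfl⟩
    exact ⟨l * k, by rw [smul_smul]⟩
  · rintro ⟨l, rfl⟩
    exact ⟨l * k⁻¹, by rw [smul_smul, mul_assoc, inv_mul_cancel₀ hk, mul_one]⟩

theorem VV_smul {k : F4} (hk : k ≠ 0) : VV L (k • s) = VV L s := by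
  ext x
  rw [mem_VV, mem_VV, inF_smul hk]

theorem VV_comm (h0 : H s s = 0) {x y : G} (hx : x ∈ VV L s) (hy : y ∈ VV L s) : x * y = y * x := by
  obtain ⟨hx, k, hk⟩ := hx
  obtain ⟨hy, l, hl⟩ := hy
  rw [L.comm_iff x hx y hy, hk, hl, H_smul_left, H_smul_right, h0, mul_zero, mul_zero]
  left; rfl

theorem VV_sq (h0 : H s s = 0) {x : G} (hx : x ∈ VV L s) : x * x = 1 := by
  obtain ⟨hx, k, hk⟩ := hx
  rw [L.sq_iff x hx, hk, H_smul_left, H_smul_right, h0, mul_zero, mul_zero]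

theorem card_VV (hs : s ≠ 0) : Nat.card (VV L s) = 8 := by
  rw [card_pre L (VV L s) (VV_le L) (InF s) (fun x hx => ⟨fun h => h.2, fun h => ⟨hx, h⟩⟩)
    ⟨0, by rw [zero_smul]⟩]
  have h1 : Nat.card {w : W // InF s w} = Nat.card F4 := by
    symm
    refine Nat.card_congr (Equiv.ofBijective (fun k => (⟨k • s, k, rfl⟩ : {w : W // InF s w})) ⟨?_, ?_⟩)
    · intro k l h
      have h1 : k • s = l • s := congrArg Subtype.val h
      have h2 : (k - l) • s = 0 := by rw [sub_smul, h1, sub_self]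
      rcases smul_eq_zero.1 h2 with h3 | h3
      · exact sub_eq_zero.1 h3
      · exact absurd h3 hs
    · rintro ⟨w, k, rfl⟩
      exact ⟨k, rfl⟩
  rw [h1, Nat.card_eq_fintype_card, F4.card_F4]

/-- `x ∈ Q` centralises `V` iff its label is orthogonal to `s` -/
theorem mem_cent_Q {x : G} (hx : x ∈ Q) : x ∈ centralizer (VV L s : Set G) ↔ H (L.v x) s = 0 := by
  rw [mem_centralizer_iff]
  constructor
  · intro h
    obtain ⟨a, ha, hav⟩ := L.v_surj s
    obtain ⟨b, hb, hbv⟩ := L.v_surj (F4.w • s)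
    have h1 := (L.comm_iff x hx a ha).1 (h a ⟨ha, 1, by rw [hav, one_smul]⟩).symm
    have h2 := (L.comm_iff x hx b hb).1 (h b ⟨hb, F4.w, hbv⟩).symm
    rw [hav] at h1
    rw [hbv, H_smul_right] at h2
    revert h1 h2
    generalize H (L.v x) s = t
    revert t; decide
  · rintro h y ⟨hy, k, hk⟩
    apply Eq.symm
    rw [L.comm_iff x hx y hy, hk, H_smul_right, h, mul_zero]
    left; rfl

theorem cent_z {c : G} (hc : c ∈ centralizer (VV L s : Set G)) : c * z = z * c :=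
  (mem_centralizer_iff.1 hc z (z_mem_VV L)).symm

theorem cent_fix {c : G} (hc : c ∈ centralizer (VV L s : Set G)) (k : F4) : L.ρ c (k • s) = k • s := by
  obtain ⟨b, hb, hbv⟩ := L.v_surj (k • s)
  rw [← hbv, ← L.v_conj c (cent_z L hc) b hb, ← mem_centralizer_iff.1 hc b ⟨hb, k, hbv⟩,
    mul_inv_cancel_right]

theorem cent_fix_one {c : G} (hc : c ∈ centralizer (VV L s : Set G)) : L.ρ c s = s := by
  have := cent_fix L hc 1
  rwa [one_smul] at this

/-- an element centralising `z` and elements with labels `s`, `ω s` centralises `V` -/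
theorem mem_cent_of {c a b : G} (hz : c * z = z * c) (ha : a ∈ Q) (hav : L.v a = s) (hb : b ∈ Q)
    (hbv : L.v b = F4.w • s) (h1 : c * a = a * c) (h2 : c * b = b * c) :
    c ∈ centralizer (VV L s : Set G) := by
  rw [mem_centralizer_iff]
  rintro x ⟨hx, k, hk⟩
  have key : ∀ y ∈ Q, c * y = y * c → L.v x = L.v y → x * c = c * x := by
    intro y hy hcy hxy
    rcases (L.v_eq hx hy).1 hxy with h | h
    · rw [h, hcy]
    · rw [h, ← mul_assoc c, hcy, mul_assoc y c z, hz, mul_assoc]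
  have hk' : k = 0 ∨ k = 1 ∨ k = F4.w ∨ k = 1 + F4.w := by clear hk; revert k; decide
  rcases hk' with rfl | rfl | rfl | rfl
  · exact key 1 Q.one_mem (by rw [mul_one, one_mul]) (by rw [hk, zero_smul, L.v_one])
  · exact key a ha h1 (by rw [hk, one_smul, hav])
  · exact key b hb h2 (by rw [hk, hbv])
  · refine key (a * b) (Q.mul_mem ha hb) ?_ (by rw [hk, L.v_mul a ha b hb, hav, hbv, add_smul, one_smul])
    rw [← mul_assoc, h1, mul_assoc, h2, mul_assoc]

/-- the action of an element fixing `s` is realised in `C(V)` -/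
theorem exists_cent {m : G} (hm : m ∈ M) (hms : L.ρ m s = s) (hs : s ≠ 0) :
    ∃ c ∈ centralizer (VV L s : Set G), c ∈ M ∧ ∀ w, L.ρ c w = L.ρ m w := by
  obtain ⟨a, ha, hav⟩ := L.v_surj s
  obtain ⟨b, hb, hbv⟩ := L.v_surj (F4.w • s)
  have hmz := L.M_comm m hm
  -- an element of `Q` with given product with `s`
  have key : ∃ q ∈ Q, (q * m) * a = a * (q * m) ∧ (q * m) * b = b * (q * m) := by
    have h1 : m * a * m⁻¹ = a ∨ m * a * m⁻¹ = a * z := by
      rw [← L.v_eq (L.large.conj_mem m hmz a ha) ha, L.v_conj m hmz a ha, hav, hms]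
    have h2 : m * b * m⁻¹ = b ∨ m * b * m⁻¹ = b * z := by
      rw [← L.v_eq (L.large.conj_mem m hmz b hb) hb, L.v_conj m hmz b hb, hbv, (L.isLin hm).smul, hms]
    have h3 : ∀ k : F4, ∃ q ∈ Q, H (L.v q) s = k := by
      intro k
      obtain ⟨w, hw⟩ := Geo.exists_H' hs k
      obtain ⟨q, hq, rfl⟩ := L.v_surj w
      exact ⟨q, hq, hw⟩
    have fin1 : ∀ q ∈ Q, ∀ x ∈ Q, m * x * m⁻¹ = x → q * x = x * q → (q * m) * x = x * (q * m) := by
      intro q _ x _ h4 h5
      rw [mul_assoc, mul_inv_eq_iff_eq_mul.1 h4, ← mul_assoc, h5, mul_assoc]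
    have fin2 : ∀ q ∈ Q, ∀ x ∈ Q, m * x * m⁻¹ = x * z → q * x = x * q * z → (q * m) * x = x * (q * m) := by
      intro q hq x _ h4 h5
      calc q * m * x = q * (m * x) := by group
        _ = q * x * z * m := by rw [mul_inv_eq_iff_eq_mul.1 h4]; group
        _ = x * q * (z * z) * m := by rw [h5]; group
        _ = x * (q * m) := by rw [L.large.z_sq]; group
    rcases h1 with h1 | h1 <;> rcases h2 with h2 | h2
    · obtain ⟨q, hq, hqs⟩ := h3 0
      refine ⟨q, hq, fin1 q hq a ha h1 ?_, fin1 q hq b hb h2 ?_⟩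
      · rw [L.comm_iff q hq a ha, hav, hqs]; left; rfl
      · rw [L.comm_iff q hq b hb, hbv, H_smul_right, hqs]; left; rfl
    · obtain ⟨q, hq, hqs⟩ := h3 1
      refine ⟨q, hq, fin1 q hq a ha h1 ?_, fin2 q hq b hb h2 ?_⟩
      · rw [L.comm_iff q hq a ha, hav, hqs]; right; rfl
      · rw [L.comm_z_iff hq hb, hbv, H_smul_right, hqs]; decide
    · obtain ⟨q, hq, hqs⟩ := h3 F4.w
      refine ⟨q, hq, fin2 q hq a ha h1 ?_, fin1 q hq b hb h2 ?_⟩
      · rw [L.comm_z_iff hq ha, hav, hqs]; decide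
      · rw [L.comm_iff q hq b hb, hbv, H_smul_right, hqs]; right; decide
    · obtain ⟨q, hq, hqs⟩ := h3 F4.v
      refine ⟨q, hq, fin2 q hq a ha h1 ?_, fin2 q hq b hb h2 ?_⟩
      · rw [L.comm_z_iff hq ha, hav, hqs]; decide
      · rw [L.comm_z_iff hq hb, hbv, H_smul_right, hqs]; decide
  obtain ⟨q, hq, h1, h2⟩ := key
  have hqm := M.mul_mem (L.Q_le hq) hm
  refine ⟨q * m, mem_cent_of L (L.M_comm _ hqm) ha hav hb hbv h1 h2, hqm, fun w => ?_⟩
  rw [L.ρ_mul (L.M_comm q (L.Q_le hq)) hmz, L.ρ_mem_Q hq]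

end basic

end Cfsg.Agent.H824.FiV
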