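import Cfsg.Agent.H824.FiV

/-!
# Groups of large Fischer type: orders of `C(V)` and of its subgroup `R = (Q ∩ C(V)) (A ∩ C(V))`
-/

set_option autoImplicit false

namespace Cfsg.Agent.H824.FiV2

open Cfsg.Agent.SporRec.GF4 Cfsg.Agent.R08 Cfsg.Agent.R08.Iface Cfsg.Agent.R08.TwoFin
open Cfsg.Agent.R08.TwoGrp Cfsg.Agent.R08.Iface.Lab Cfsg.Agent.H824.FiStab Cfsg.Agent.H824.FiV
open Subgroup

variable {G : Type*} [Group G] {Q M : Subgroup G} {z : G}

/-! ### orders -/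

theorem card_subgroupOf {H : Type*} [Group H] (A B : Subgroup H) :
    Nat.card (A.subgroupOf B) = Nat.card ↥(A ⊓ B) := by
  rw [← Subgroup.inf_subgroupOf_right A B]
  exact Nat.card_congr (subgroupOfEquivOfLe (inf_le_right : A ⊓ B ≤ B)).toEquiv

theorem card_perp0 : Nat.card {w : W // H w s0 = 0} = 1024 := by
  classical
  rw [Nat.card_eq_fintype_card, Fintype.card_subtype,
    ModVec.card_W (P := fun v => H v s0 = 0) (p := fun a b c d e f => isz (hC ⟨a, b, c, d, e, f⟩ cs0))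
      (fun v => by
        rw [isz_iff, ← H_toW]
        exact iff_of_eq (congrArg (fun t => H t s0 = 0) (toW_code v).symm))]
  decide +kernel

theorem card_perp (L : Lab F4 Q M z) {s : W} (hs : IsS s) : Nat.card {w : W // H w s = 0} = 1024 := by
  obtain ⟨m, hm, rfl⟩ := TwoTr.exists_m L hs
  have hmz := L.M_comm m hm
  rw [← card_perp0]
  symm
  refine Nat.card_congr (Equiv.ofBijective
    (fun w => (⟨L.ρ m w, (TwoTr.H_ρ_zero L hmz _ _).2 w.2⟩ : {w : W // H w (L.ρ m s0) = 0})) ⟨?_, ?_⟩)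
  · intro u v h
    exact Subtype.ext (L.ρ_inj hmz (congrArg Subtype.val h))
  · rintro ⟨v, hv⟩
    refine ⟨⟨L.ρ m⁻¹ v, ?_⟩, Subtype.ext (L.ρ_inv' hmz v)⟩
    rwa [← TwoTr.H_ρ_zero L hmz, L.ρ_inv' hmz]

/-- `|Q ∩ C(V)| = 2 ^ 11` -/
theorem card_Q_cent (L : Lab F4 Q M z) {s : W} (hs : IsS s) :
    Nat.card ↥(Q ⊓ centralizer (VV L s : Set G)) = 2 ^ 11 := by
  rw [card_pre L (Q ⊓ centralizer (VV L s : Set G)) inf_le_left (fun w => H w s = 0) (fun x hx => by
    rw [mem_inf, ← mem_cent_Q L hx]; exact ⟨fun h => h.2, fun h => ⟨hx, h⟩⟩)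
    (Geo.H_zero_left s), card_perp L hs]
  norm_num

theorem card_stabM (L : Lab F4 Q M z) [Finite G] {w : W} (hw : IsS w) :
    Nat.card ↥(stab L w ⊓ M.subgroupOf (C z)) = 5760 * 2 ^ 13 := by
  let _ := labAct L
  have h3 := MulAction.index_stabilizer (M.subgroupOf (C z)) w
  have h4 : MulAction.stabilizer (M.subgroupOf (C z)) w = (stab L w).subgroupOf (M.subgroupOf (C z)) := rfl
  have h5 : MulAction.orbit (M.subgroupOf (C z)) w = {v | IsS v} := by
    ext v
    constructor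
    · rintro ⟨c, rfl⟩
      exact (TwoTr.isS_ρ L (mem_C.1 c.1.2) w).2 hw
    · intro hv
      obtain ⟨m, hm, h⟩ := L.transS w v hw hv
      exact ⟨⟨⟨m, mem_C.2 (L.M_comm m hm)⟩, mem_subgroupOf.2 hm⟩, h⟩
  rw [h4, h5] at h3
  have h6 : Nat.card {v : W // IsS v} = Set.ncard {v | IsS v} := rfl
  have h7 := Subgroup.card_mul_index ((stab L w).subgroupOf (M.subgroupOf (C z)))
  rw [h3, ← h6, Geo.card_S] at h7
  have h8 := card_subgroupOf (stab L w) (M.subgroupOf (C z))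
  have h9 : Nat.card (M.subgroupOf (C z)) = 9797760 * 2 ^ 13 := by
    rw [Nat.card_congr (subgroupOfEquivOfLe (fun m hm => mem_C.2 (L.M_comm m hm))).toEquiv, L.cardM,
      TwoGrp.card_Q L]
  rw [h8, h9] at h7
  omega

theorem normal_Q (L : Lab F4 Q M z) : (Q.subgroupOf (C z)).Normal := by
  constructor
  intro n hn g
  rw [mem_subgroupOf] at hn ⊢
  exact L.large.conj_mem g (mem_C.1 g.2) n hn

theorem card_cent (L : Lab F4 Q M z) [Finite G] {s : W} (hs : IsS s)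
    (hM : centralizer (VV L s : Set G) ≤ M) :
    Nat.card (centralizer (VV L s : Set G)) = 5760 * 2 ^ 11 := by
  have hn := normal_Q L
  have hle : centralizer (VV L s : Set G) ≤ C z := fun c hc => mem_C.2 (cent_z L hc)
  have hQC : Q ≤ C z := fun c hc => mem_C.2 (L.large.comm_z c hc)
  set CV := (centralizer (VV L s : Set G)).subgroupOf (C z) with hCV
  have h1 := card_map_mk (Q.subgroupOf (C z)) (stab L s ⊓ M.subgroupOf (C z))
  have h2 : Q.subgroupOf (C z) ⊓ (stab L s ⊓ M.subgroupOf (C z)) = Q.subgroupOf (C z) := by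
    apply inf_eq_left.2
    intro q hq
    exact mem_inf.2 ⟨L.ρ_mem_Q (mem_subgroupOf.1 hq) s, mem_subgroupOf.2 (L.Q_le (mem_subgroupOf.1 hq))⟩
  have h3 : Nat.card (Q.subgroupOf (C z)) = 2 ^ 13 := by
    rw [Nat.card_congr (subgroupOfEquivOfLe hQC).toEquiv, TwoGrp.card_Q L]
  rw [h2, h3, card_stabM L hs] at h1
  have h4 := card_map_mk (Q.subgroupOf (C z)) CV
  have h5 : Nat.card ↥(Q.subgroupOf (C z) ⊓ CV) = 2 ^ 11 := by
    rw [← card_Q_cent L hs, hCV]
    exact Nat.card_congr (subgroupOfEquivOfLe ((inf_le_left : Q ⊓ centralizer (VV L s : Set G) ≤ Q).trans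
      hQC)).toEquiv
  have h6 : CV.map (QuotientGroup.mk' (Q.subgroupOf (C z))) =
      (stab L s ⊓ M.subgroupOf (C z)).map (QuotientGroup.mk' (Q.subgroupOf (C z))) := by
    apply le_antisymm
    · apply map_mono
      intro c hc
      exact mem_inf.2 ⟨cent_fix_one L (mem_subgroupOf.1 hc), mem_subgroupOf.2 (hM (mem_subgroupOf.1 hc))⟩
    · rintro _ ⟨m, hm, rfl⟩
      obtain ⟨hm1, hm2⟩ := mem_inf.1 hm
      obtain ⟨c, hc, hcM, hcw⟩ := exists_cent L (mem_subgroupOf.1 hm2) hm1 (isS_ne hs)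
      refine ⟨⟨c, hle hc⟩, mem_subgroupOf.2 hc, ?_⟩
      apply QuotientGroup.eq.2
      rw [mem_subgroupOf]
      have hcz := L.M_comm c hcM
      have hmz := mem_C.1 m.2
      show c⁻¹ * (m : G) ∈ Q
      refine L.mem_Q _ (mul_comm' (Lab.inv_comm hcz) hmz) fun w => ?_
      rw [L.ρ_mul (Lab.inv_comm hcz) hmz, ← hcw, L.ρ_inv hcz]
  rw [h6, h5] at h4
  have h7 : Nat.card CV = Nat.card (centralizer (VV L s : Set G)) :=
    Nat.card_congr (subgroupOfEquivOfLe hle).toEquiv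
  rw [h7] at h4
  omega

end Cfsg.Agent.H824.FiV2
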