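import Cfsg.Agent.H824.FiV3

/-!
# Groups of large Fischer type: the normaliser of `V`
-/

set_option autoImplicit false

namespace Cfsg.Agent.H824.FiV4

open Cfsg.Agent.SporRec.GF4 Cfsg.Agent.R08 Cfsg.Agent.R08.Iface Cfsg.Agent.R08.TwoFin
open Cfsg.Agent.R08.TwoGrp Cfsg.Agent.R08.Iface.Lab Cfsg.Agent.H824.FiStab Cfsg.Agent.H824.FiV
open Cfsg.Agent.H824.FiV2 Cfsg.Agent.H824.FiV3
open Subgroup

variable {G : Type*} [Group G] {Q M : Subgroup G} {z : G}

theorem cj_VV (L : Lab F4 Q M z) {c : G} (hc : c * z = z * c) (s : W) :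
    cj c (VV L s) = VV L (L.ρ c s) := by
  ext y
  rw [mem_cj, mem_VV, mem_VV]
  have hc' := Lab.inv_comm hc
  have e : c⁻¹ * y * c = c⁻¹ * y * c⁻¹⁻¹ := by rw [inv_inv]
  have h1 : c⁻¹ * y * c ∈ Q ↔ y ∈ Q := by
    rw [← mem_cj, L.cj_Q hc]
  rw [h1]
  apply and_congr_right
  intro hy
  rw [e, L.v_conj _ hc' y hy, ← TwoTr.inF_ρ L hc, L.ρ_inv' hc]

theorem mem_norm {V : Subgroup G} {n : G} : n ∈ normalizer (V : Set G) ↔ cj n V = V := by
  rw [mem_normalizer_iff]
  constructor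
  · intro h
    ext x
    rw [mem_cj, h]
    have : n * (n⁻¹ * x * n) * n⁻¹ = x := by group
    rw [this]
  · intro h x
    rw [← conj_mem_cj (g := n) (B := V), h]

theorem VV_eq_iff (L : Lab F4 Q M z) {s t : W} (ht : t ≠ 0) : VV L t = VV L s ↔ InF s t := by
  constructor
  · intro h
    obtain ⟨x, hx, hxt⟩ := L.v_surj t
    have h1 : x ∈ VV L t := ⟨hx, 1, by rw [hxt, one_smul]⟩
    rw [h] at h1
    have h2 := h1.2
    rwa [hxt] at h2
  · rintro ⟨k, rfl⟩
    have hk : k ≠ 0 := by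
      rintro rfl
      exact ht (zero_smul _ _)
    exact VV_smul L hk

theorem mem_norm_iff (L : Lab F4 Q M z) {s : W} (hs : s ≠ 0) {c : G} (hc : c * z = z * c) :
    c ∈ normalizer (VV L s : Set G) ↔ InF s (L.ρ c s) := by
  rw [mem_norm, cj_VV L hc, VV_eq_iff L]
  intro h
  exact hs ((TwoTr.ρ_ne_zero L hc s).1 h)

variable [Finite G]

/-- `N(V)` is transitive on the involutions of `V` -/
theorem trans_VV (L : Lab F4 Q M z) (hnwc : ∃ g : G, g * z * g⁻¹ ∈ Q ∧ g * z * g⁻¹ ≠ z) {s : W}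
    (hs : IsS s) {x : G} (hx : x ∈ VV L s) (hx1 : x ≠ 1) :
    ∃ n ∈ normalizer (VV L s : Set G), n * z * n⁻¹ = x := by
  by_cases hxz : x = z
  · exact ⟨1, one_mem _, by rw [hxz]; group⟩
  obtain ⟨hxQ, k, hk⟩ := hx
  have hk0 : k ≠ 0 := by
    rintro rfl
    rw [zero_smul] at hk
    rcases (L.v_eq_zero x hxQ).1 hk with h | h
    · exact hx1 h
    · exact hxz h
  have hxS : IsS (L.v x) := by rw [hk]; exact Geo.isS_smul hk0 hs
  obtain ⟨g, rfl⟩ := FusQ.twoB_of_isS L hnwc hxQ hxS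
  have d := duo L hxQ hxz
  set x := g * z * g⁻¹ with hx
  set Lx := L.conj' g x rfl with hLx
  have h1 : VV L s = VV Lx (Lx.v z) := by
    rw [← VV_symm d, hk, VV_smul L hk0]
  have h2 : cj g (VV L s) = VV Lx s := by
    ext y
    rw [mem_cj]
    constructor
    · rintro ⟨h3, h4⟩
      exact ⟨mem_cj.2 h3, h4⟩
    · rintro ⟨h3, h4⟩
      exact ⟨mem_cj.1 h3, h4⟩
  obtain ⟨m, hm, hms⟩ := Lx.transS s (Lx.v z) hs d.symm.isS
  have hmx := Lx.M_comm m hm
  refine ⟨m * g, ?_, ?_⟩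
  · rw [mem_norm, ← cj_cj, h2, cj_VV Lx hmx, hms, ← h1]
  · have e : m * g * z * (m * g)⁻¹ = m * (g * z * g⁻¹) * m⁻¹ := by group
    rw [e, ← hx, hmx, mul_inv_cancel_right]

/-- `|N(V) ∩ C(z)|` -/
theorem card_norm_cent (L : Lab F4 Q M z) {s : W} (hs : IsS s) :
    Nat.card ((normalizer (VV L s : Set G)).subgroupOf (C z)) = 3 * (11520 * 2 ^ 13) := by
  let _ := labAct L
  set NC := (normalizer (VV L s : Set G)).subgroupOf (C z) with hNC
  have hs0 := isS_ne hs
  have hmem : ∀ c : C z, c ∈ NC ↔ InF s (L.ρ c s) := by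
    intro c
    rw [hNC, mem_subgroupOf, mem_norm_iff L hs0 (mem_C.1 c.2)]
  have h3 := MulAction.index_stabilizer NC s
  have h4 : MulAction.stabilizer NC s = (stab L s).subgroupOf NC := rfl
  have h5 : MulAction.orbit NC s = {v | ∃ k : F4ˣ, v = (k : F4) • s} := by
    ext v
    constructor
    · rintro ⟨c, rfl⟩
      obtain ⟨k, hk⟩ := (hmem c.1).1 c.2
      have hk0 : k ≠ 0 := by
        rintro rfl
        rw [zero_smul] at hk
        exact hs0 ((TwoTr.ρ_ne_zero L (mem_C.1 c.1.2) s).1 hk)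
      exact ⟨Units.mk0 k hk0, hk⟩
    · rintro ⟨k, rfl⟩
      obtain ⟨m, hm, h⟩ := L.scal k k.ne_zero
      have hmz := L.M_comm m hm
      exact ⟨⟨⟨m, mem_C.2 hmz⟩, (hmem _).2 ⟨k, h s⟩⟩, h s⟩
  have h6 : Set.ncard {v : W | ∃ k : F4ˣ, v = (k : F4) • s} = 3 := by
    have h7 : {v : W | ∃ k : F4ˣ, v = (k : F4) • s} = Set.range (fun k : F4ˣ => (k : F4) • s) := by
      ext v
      constructor
      · rintro ⟨k, rfl⟩; exact ⟨k, rfl⟩
      · rintro ⟨k, rfl⟩; exact ⟨k, rfl⟩
    rw [h7, ← Set.image_univ, Set.ncard_image_of_injective, Set.ncard_univ, Nat.card_units,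
      Nat.card_eq_fintype_card, F4.card_F4]
    intro k l h
    apply Units.ext
    have h1 : (k : F4) • s = (l : F4) • s := h
    have h2 : ((k : F4) - l) • s = 0 := by rw [sub_smul, h1, sub_self]
    rcases smul_eq_zero.1 h2 with h3 | h3
    · exact sub_eq_zero.1 h3
    · exact absurd h3 hs0
  rw [h4, h5, h6] at h3
  have h7 := Subgroup.card_mul_index ((stab L s).subgroupOf NC)
  have h8 : stab L s ≤ NC := by
    intro c hc
    rw [hmem]
    exact ⟨1, by rw [one_smul]; exact hc⟩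
  rw [h3, Nat.card_congr (subgroupOfEquivOfLe h8).toEquiv, card_stabS L hs] at h7
  rw [← h7]
  ring

/-- `|N(V)|` -/
theorem card_norm (L : Lab F4 Q M z) (hnwc : ∃ g : G, g * z * g⁻¹ ∈ Q ∧ g * z * g⁻¹ ≠ z) {s : W}
    (hs : IsS s) : Nat.card (normalizer (VV L s : Set G)) = 7 * (3 * (11520 * 2 ^ 13)) := by
  let _ : MulAction (normalizer (VV L s : Set G)) G :=
    MulAction.compHom G ((MulAut.conj : G →* MulAut G).comp (normalizer (VV L s : Set G)).subtype)
  have h3 := MulAction.index_stabilizer (normalizer (VV L s : Set G)) z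
  have h4 : MulAction.stabilizer (normalizer (VV L s : Set G)) z =
      (C z).subgroupOf (normalizer (VV L s : Set G)) := by
    ext n
    rw [MulAction.mem_stabilizer_iff, mem_subgroupOf, mem_C]
    exact mul_inv_eq_iff_eq_mul
  have h5 : MulAction.orbit (normalizer (VV L s : Set G)) z = (VV L s : Set G) \ {1} := by
    ext v
    constructor
    · rintro ⟨n, rfl⟩
      refine ⟨(mem_normalizer_iff.1 n.2 z).1 (z_mem_VV L), ?_⟩
      intro h
      have h1 : (n : G) * z * (n : G)⁻¹ = 1 := h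
      apply L.large.z_ne
      rw [mul_inv_eq_one] at h1
      exact mul_eq_left.1 h1
    · rintro ⟨hv, hv1⟩
      obtain ⟨n, hn, h⟩ := trans_VV L hnwc hs hv (fun h => hv1 (by rw [h]; rfl))
      exact ⟨⟨n, hn⟩, h⟩
  have h6 : ((VV L s : Set G) \ {1}).ncard = 7 := by
    rw [Set.ncard_sdiff_singleton_of_mem (one_mem (VV L s))]
    have : (VV L s : Set G).ncard = Nat.card (VV L s) := rfl
    rw [this, card_VV L (isS_ne hs)]
  rw [h4, h5, h6] at h3
  have h7 := Subgroup.card_mul_index ((C z).subgroupOf (normalizer (VV L s : Set G)))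
  rw [h3, card_subgroupOf, inf_comm, ← card_subgroupOf, card_norm_cent L hs] at h7
  rw [← h7]
  ring

omit [Finite G] in
theorem cent_le_norm (V : Subgroup G) : centralizer (V : Set G) ≤ normalizer (V : Set G) := by
  intro c hc
  rw [mem_norm]
  ext x
  rw [mem_cj]
  constructor
  · intro h
    have h1 := mem_centralizer_iff.1 hc _ h
    have h2 : x = c⁻¹ * x * c := by
      calc x = (c * (c⁻¹ * x * c)) * c⁻¹ := by group
        _ = ((c⁻¹ * x * c) * c) * c⁻¹ := by rw [h1]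
        _ = _ := by group
    rw [h2]; exact h
  · intro h
    have h1 := mem_centralizer_iff.1 hc _ h
    have h2 : c⁻¹ * x * c = x := by rw [mul_assoc, h1, inv_mul_cancel_left]
    rw [h2]; exact h

/-- **`N(V) / C(V) ≅ SL(3,2)`** -/
theorem equiv_sl (L : Lab F4 Q M z) (hnwc : ∃ g : G, g * z * g⁻¹ ∈ Q ∧ g * z * g⁻¹ ≠ z) {s : W}
    (hs : IsS s) (hM : centralizer (VV L s : Set G) ≤ M) :
    ∃ _ : ((centralizer (VV L s : Set G)).subgroupOf (normalizer (VV L s : Set G))).Normal,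
      Nonempty (normalizer (VV L s : Set G) ⧸
        (centralizer (VV L s : Set G)).subgroupOf (normalizer (VV L s : Set G)) ≃* ProdLem.SL32) := by
  have hker := normalizerMonoidHom_ker (VV L s)
  have hn : ((centralizer (VV L s : Set G)).subgroupOf (normalizer (VV L s : Set G))).Normal := by
    rw [← hker]; infer_instance
  refine ⟨hn, ?_⟩
  have hc8 := card_VV L (isS_ne hs)
  obtain ⟨e8⟩ := ProdLem.aut_eight (V := VV L s) (fun x => Subtype.ext (VV_sq L (isS_iso hs) x.2)) hc8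
  have h168 : Nat.card (MulAut (VV L s)) = 168 := by
    rw [Nat.card_congr e8.toEquiv, ProdLem.card_sl32]
  have h1 := Subgroup.card_mul_index
    ((centralizer (VV L s : Set G)).subgroupOf (normalizer (VV L s : Set G)))
  rw [card_norm L hnwc hs, Nat.card_congr (subgroupOfEquivOfLe (cent_le_norm (VV L s))).toEquiv,
    card_cent L hs hM] at h1
  have h2 : Nat.card (VV L s).normalizerMonoidHom.range = 168 := by
    rw [← Subgroup.index_ker, hker]
    omega
  have h3 : (VV L s).normalizerMonoidHom.range = ⊤ := by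
    have : Finite (MulAut (VV L s)) := Nat.finite_of_card_ne_zero (by rw [h168]; norm_num)
    exact Subgroup.eq_top_of_card_eq _ (by rw [h2, h168])
  have h4 : Function.Surjective (VV L s).normalizerMonoidHom := MonoidHom.range_eq_top.1 h3
  exact ⟨(QuotientGroup.quotientMulEquivOfEq hker.symm).trans
    ((QuotientGroup.quotientKerEquivOfSurjective _ h4).trans e8)⟩

end Cfsg.Agent.H824.FiV4
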