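import Cfsg.Agent.H824.FiV4
import Cfsg.Agent.H824.NormLem
import Cfsg.Agent.Lib.FrattiniPGroup

/-!
# Groups of large Fischer type: `R = O₂(N(V))` is special
-/

set_option autoImplicit false

namespace Cfsg.Agent.H824.FiV5

open Cfsg Cfsg.Agent.SporRec.GF4 Cfsg.Agent.R08 Cfsg.Agent.R08.Iface Cfsg.Agent.R08.TwoFin
open Cfsg.Agent.R08.TwoGrp Cfsg.Agent.R08.Iface.Lab Cfsg.Agent.H824.FiStab Cfsg.Agent.H824.FiV
open Cfsg.Agent.H824.FiV2 Cfsg.Agent.H824.FiV3 Cfsg.Agent.H824.FiV4
open Subgroup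

variable {G : Type*} [Group G] [Finite G] {Q M A N : Subgroup G} {z a : G}
variable {L : Lab F4 Q M z} {La : Lab F4 A N a}

/-- `R` as a subgroup of `G` -/
def R0 (A : Subgroup G) (L : Lab F4 Q M z) (s : W) : Subgroup G :=
  (RR A L s).map (centralizer (VV L s : Set G)).subtype

theorem mem_R0 (d : Duo L La) {x : G} : x ∈ R0 A L (L.v a) ↔
    ∃ q y : G, q ∈ Q ∧ y ∈ A ∧ q ∈ centralizer (VV L (L.v a) : Set G) ∧
      y ∈ centralizer (VV L (L.v a) : Set G) ∧ q * y = x := by
  unfold R0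
  constructor
  · rintro ⟨x, hx, rfl⟩
    obtain ⟨q, y, hq, hy, h⟩ := (mem_RR d).1 hx
    exact ⟨q, y, hq, hy, q.2, y.2, congrArg Subtype.val h⟩
  · rintro ⟨q, y, hq, hy, hqc, hyc, rfl⟩
    exact ⟨⟨q, hqc⟩ * ⟨y, hyc⟩, (mem_RR d).2 ⟨_, _, hq, hy, rfl⟩, rfl⟩

theorem R0_le (A : Subgroup G) (L : Lab F4 Q M z) (s : W) : R0 A L s ≤ centralizer (VV L s : Set G) :=
  map_subtype_le _

theorem Q_le_R0 (d : Duo L La) {q : G} (hq : q ∈ Q) (hc : q ∈ centralizer (VV L (L.v a) : Set G)) :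
    q ∈ R0 A L (L.v a) :=
  (mem_R0 d).2 ⟨q, 1, hq, A.one_mem, hc, one_mem _, mul_one q⟩

theorem A_le_R0 (d : Duo L La) {y : G} (hy : y ∈ A) (hc : y ∈ centralizer (VV L (L.v a) : Set G)) :
    y ∈ R0 A L (L.v a) :=
  (mem_R0 d).2 ⟨1, y, Q.one_mem, hy, one_mem _, hc, one_mul y⟩

theorem VV_le_R0 (d : Duo L La) : VV L (L.v a) ≤ R0 A L (L.v a) := fun _ hx =>
  Q_le_R0 d (VV_le L hx) (VV_le_cent d hx)

theorem card_R0 (d : Duo L La) : Nat.card (R0 A L (L.v a)) = 2 ^ 15 := by
  unfold R0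
  rw [← card_RR d]
  exact (Nat.card_congr (Subgroup.equivMapOfInjective _ _ (subtype_injective _)).toEquiv).symm

/-- an element of `R` commuting with `R` lies in `V` -/
theorem mem_VV_of_center (d : Duo L La) {x : G} (hx : x ∈ R0 A L (L.v a))
    (hc : ∀ y ∈ R0 A L (L.v a), x * y = y * x) : x ∈ VV L (L.v a) :=
  mem_VV_of_comm d (R0_le _ _ _ hx) fun q hq hqc => hc q (Q_le_R0 d hq hqc)

/-! ### working modulo `V` -/

/-- `V` as a subgroup of `C(V)` -/
theorem normal_VV (d : Duo L La) :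
    ((VV L (L.v a)).subgroupOf (centralizer (VV L (L.v a) : Set G))).Normal := by
  constructor
  intro n hn g
  rw [mem_subgroupOf] at hn ⊢
  have h1 := mem_centralizer_iff.1 g.2 n hn
  have : ((g * n * g⁻¹ : centralizer (VV L (L.v a) : Set G)) : G) = n := by
    show (g : G) * n * (g : G)⁻¹ = n
    rw [← h1, mul_inv_cancel_right]
  rw [this]; exact hn

theorem quot (d : Duo L La) {x y : G} (hx : x ∈ R0 A L (L.v a)) (hy : y ∈ R0 A L (L.v a)) :
    x * y * x⁻¹ * y⁻¹ ∈ VV L (L.v a) ∧ x * x ∈ VV L (L.v a) := by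
  have hnV := normal_VV d
  set CV := centralizer (VV L (L.v a) : Set G) with hCV
  set VC := (VV L (L.v a)).subgroupOf CV with hVC
  let π := QuotientGroup.mk' VC
  have hπ : ∀ c : CV, π c = 1 ↔ (c : G) ∈ VV L (L.v a) := by
    intro c
    rw [← mem_subgroupOf]
    exact QuotientGroup.eq_one_iff c
  -- commuting
  have hQQ : ∀ q r : CV, (q : G) ∈ Q → (r : G) ∈ Q → π q * π r = π r * π q := by
    intro q r hq hr
    rw [← map_mul, ← map_mul, ← mul_inv_eq_one, ← map_inv, ← map_mul, hπ]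
    have h1 := L.large.comm q hq r hr
    have h2 : ((q * r * (r * q)⁻¹ : CV) : G) = (q : G) * r * ((r : G) * q)⁻¹ := rfl
    rw [h2]
    rcases h1 with h1 | h1
    · rw [h1, mul_inv_cancel]; exact one_mem _
    · rw [h1]
      have h3 : (r : G) * q * z * ((r : G) * q)⁻¹ = z := by
        have h4 : (r : G) * q * z = z * ((r : G) * q) := L.large.comm_z _ (Q.mul_mem hr hq)
        rw [h4, mul_inv_cancel_right]
      rw [h3]; exact z_mem_VV L
  have hAA : ∀ q r : CV, (q : G) ∈ A → (r : G) ∈ A → π q * π r = π r * π q := by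
    intro q r hq hr
    rw [← map_mul, ← map_mul, ← mul_inv_eq_one, ← map_inv, ← map_mul, hπ]
    have h1 := La.large.comm q hq r hr
    have h2 : ((q * r * (r * q)⁻¹ : CV) : G) = (q : G) * r * ((r : G) * q)⁻¹ := rfl
    rw [h2]
    rcases h1 with h1 | h1
    · rw [h1, mul_inv_cancel]; exact one_mem _
    · rw [h1]
      have h3 : (r : G) * q * a * ((r : G) * q)⁻¹ = a := by
        have h4 : (r : G) * q * a = a * ((r : G) * q) := La.large.comm_z _ (A.mul_mem hr hq)
        rw [h4, mul_inv_cancel_right]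
      rw [h3]; exact a_mem d
  have hQA : ∀ q y : CV, (q : G) ∈ Q → (y : G) ∈ A → π q * π y = π y * π q := by
    intro q y hq hy
    symm
    rw [← map_mul, ← map_mul, ← mul_inv_eq_one, ← map_inv, ← map_mul, hπ]
    have h2 : ((y * q * (q * y)⁻¹ : CV) : G) = (y : G) * q * (y : G)⁻¹ * (q : G)⁻¹ := by
      show (y : G) * q * ((q : G) * y)⁻¹ = _
      group
    rw [h2]
    exact comm_QA d hq q.2 hy y.2
  have hQs : ∀ q : CV, (q : G) ∈ Q → π q * π q = 1 := by
    intro q hq
    rw [← map_mul, hπ]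
    rcases L.large.sq q hq with h | h
    · have : ((q * q : CV) : G) = 1 := h
      rw [this]; exact one_mem _
    · have : ((q * q : CV) : G) = z := h
      rw [this]; exact z_mem_VV L
  have hAs : ∀ q : CV, (q : G) ∈ A → π q * π q = 1 := by
    intro q hq
    rw [← map_mul, hπ]
    rcases La.large.sq q hq with h | h
    · have : ((q * q : CV) : G) = 1 := h
      rw [this]; exact one_mem _
    · have : ((q * q : CV) : G) = a := h
      rw [this]; exact a_mem d
  obtain ⟨q, u, hq, hu, hqc, huc, rfl⟩ := (mem_R0 d).1 hx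
  obtain ⟨r, v, hr, hv, hrc, hvc, rfl⟩ := (mem_R0 d).1 hy
  let q' : CV := ⟨q, hqc⟩
  let u' : CV := ⟨u, huc⟩
  let r' : CV := ⟨r, hrc⟩
  let v' : CV := ⟨v, hvc⟩
  have e1 := hQQ q' r' hq hr
  have e2 := hQA q' v' hq hv
  have e3 := hQA r' u' hr hu
  have e4 := hAA u' v' hu hv
  have e5 := hQA q' u' hq hu
  constructor
  · have h1 : π (q' * u' * (r' * v') * (q' * u')⁻¹ * (r' * v')⁻¹) = 1 := by
      simp only [map_mul, map_inv]
      have h2 : π q' * π u' * (π r' * π v') = π r' * π v' * (π q' * π u') := by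
        calc π q' * π u' * (π r' * π v') = π q' * (π u' * π r') * π v' := by group
          _ = π q' * (π r' * π u') * π v' := by rw [e3]
          _ = (π q' * π r') * (π u' * π v') := by group
          _ = (π r' * π q') * (π v' * π u') := by rw [e1, e4]
          _ = π r' * (π q' * π v') * π u' := by group
          _ = π r' * (π v' * π q') * π u' := by rw [e2]
          _ = _ := by group
      rw [h2]
      group
    exact (hπ _).1 h1
  · have h1 : π (q' * u' * (q' * u')) = 1 := by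
      simp only [map_mul]
      calc π q' * π u' * (π q' * π u') = π q' * (π u' * π q') * π u' := by group
        _ = π q' * (π q' * π u') * π u' := by rw [e5]
        _ = (π q' * π q') * (π u' * π u') := by group
        _ = 1 := by rw [hQs q' hq, hAs u' hu, one_mul]
    exact (hπ _).1 h1

/-- `Q ∩ C(V)` is not abelian -/
theorem exists_noncomm (d : Duo L La) : ∃ x ∈ R0 A L (L.v a), ∃ y ∈ R0 A L (L.v a),
    x * y * x⁻¹ * y⁻¹ = z := by
  by_contra hno
  push Not at hno
  have h1 : Q ⊓ centralizer (VV L (L.v a) : Set G) ≤ VV L (L.v a) := by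
    rintro x ⟨hx, hxc⟩
    apply mem_VV_of_comm d hxc
    intro q hq hqc
    rcases L.large.comm x hx q hq with h | h
    · exact h
    · exfalso
      apply hno x (Q_le_R0 d hx hxc) q (Q_le_R0 d hq hqc)
      have h4 : q * x * z = z * (q * x) := L.large.comm_z _ (Q.mul_mem hq hx)
      rw [h, h4]
      group
  have h2 := Nat.card_mono (Set.toFinite (VV L (L.v a) : Set G)) h1
  have h3 : Nat.card ↥(Q ⊓ centralizer (VV L (L.v a) : Set G)) ≤ Nat.card (VV L (L.v a)) := h2
  rw [card_Q_cent L d.isS, card_VV L (isS_ne d.isS)] at h3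
  norm_num at h3

end Cfsg.Agent.H824.FiV5
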